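import Cfsg.Agent.H554.RX.Def
import Cfsg.Agent.H808.RV.FTabA
import Cfsg.Agent.H971.RV.FrOKA

/-!
# R3 exceptional, piece P1: the centraliser of `z = ph (hS (-1))` (helper971, TEAM RV)

* `mem_LC_all` : every element commuting with `zz` lies in `LC`;
* `frA_of` : the structure `H554.RX.FrA` for a frame of roots.
-/

set_option autoImplicit false
set_option linter.unusedSectionVars false

namespace Cfsg.Agent.H971.RX

open CoxeterSystem Cfsg Cfsg.Lie Cfsg.Lie.ChevalleyDatum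
open Cfsg.Agent.ChevalleyStructure Cfsg.Agent.ChevalleyStructure.Elts Cfsg.Agent.ChevalleyStructure.CoxeterGeom
  Cfsg.Agent.ChevalleyStructure.CoxeterGeomTypes Cfsg.Agent.ChevalleyStructure.NPerm
open Cfsg.Agent.ChevalleyStructure.RootVec
open Cfsg.Agent.Tits.Roots Cfsg.Agent.Tits.Core Cfsg.Agent.Nodes Cfsg.Agent.Nodes.Reps Cfsg.Agent.Nodes.BNOf
  Cfsg.Agent.Nodes.RGDChev Cfsg.Agent.Nodes.Bruhat Cfsg.Agent.Nodes.NormalForm
open Cfsg.Agent.KFacts.RgdField Cfsg.Agent.KFacts.RgdChevCoord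
open Cfsg.Agent.BpExc Cfsg.Agent.BpExc.TorCent Cfsg.Agent.BpExc.TorChev Cfsg.Agent.BpExc.Tow
  Cfsg.Agent.BpExc.TowChev Cfsg.Agent.BpExc.Fr Cfsg.Agent.BpExc.Pair Cfsg.Agent.BpExc.LangFr Cfsg.Agent.GpExc.Field
  Cfsg.Agent.BpExc.TorAll
open Cfsg.Agent.H469.Exc Cfsg.Agent.H469.Exc.SigFr
open Cfsg.Agent.Nodes.RGDFoldSL
open Cfsg.Agent.ChevalleyStructure.SL2Hom (up lo mem_closure_SL2)
open Cfsg.Agent.H167.EX Cfsg.Agent.H971.RV

universe u v

/-! ### `SL₂` -/

section SL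

variable {k : Type u} [Field k]

theorem coe_up (t : k) : (up t : Matrix (Fin 2) (Fin 2) k) = !![1, t; 0, 1] := rfl
theorem coe_lo (t : k) : (lo t : Matrix (Fin 2) (Fin 2) k) = !![1, 0; t, 1] := rfl

theorem sl_key (h2 : (2 : k) ≠ 0) {e : k} (he : e ≠ 0)
    (h : up 1 * lo (-e) * up 1 * (up 1 * lo (-e) * up 1) = hS (-1 : k)) : e = 1 := by
  have h1 := congrArg (fun A : SL k => (A : Matrix (Fin 2) (Fin 2) k) 1 0) h
  simp only [Matrix.SpecialLinearGroup.coe_mul, coe_up, coe_lo, coe_hS (neg_ne_zero.2 (one_ne_zero' k))] at h1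
  simp [Matrix.mul_apply, Fin.sum_univ_two] at h1
  have h3 : e * (2 * (1 - e)) = 0 := by linear_combination -h1
  rcases mul_eq_zero.1 h3 with h4 | h4
  · exact absurd h4 he
  · rcases mul_eq_zero.1 h4 with h5 | h5
    · exact absurd h5 h2
    · linear_combination -h5

theorem sl_one : up 1 * lo (-1) * up 1 * (up 1 * lo (-1) * up 1) = hS (-1 : k) := by
  apply Subtype.ext
  rw [coe_hS (neg_ne_zero.2 (one_ne_zero' k))]
  simp only [Matrix.SpecialLinearGroup.coe_mul, coe_up, coe_lo]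
  ext a b
  fin_cases a <;> fin_cases b <;> simp [Matrix.mul_apply, Fin.sum_univ_two]

theorem wS_up (a : k) : wS 1 * up a * (wS 1)⁻¹ = lo (-a) := by
  rw [mul_inv_eq_iff_eq_mul]
  apply Subtype.ext
  simp only [Matrix.SpecialLinearGroup.coe_mul, coe_up, coe_lo, coe_wS (one_ne_zero' k)]
  ext a b
  fin_cases a <;> fin_cases b <;> simp [Matrix.mul_apply, Fin.sum_univ_two]

theorem wS_lo (a : k) : wS 1 * lo a * (wS 1)⁻¹ = up (-a) := by
  rw [mul_inv_eq_iff_eq_mul]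
  apply Subtype.ext
  simp only [Matrix.SpecialLinearGroup.coe_mul, coe_up, coe_lo, coe_wS (one_ne_zero' k)]
  ext a b
  fin_cases a <;> fin_cases b <;> simp [Matrix.mul_apply, Fin.sum_univ_two]

theorem hS_up {μ : k} (hμ : μ ≠ 0) (a : k) : (hS μ)⁻¹ * up (μ ^ 2 * a) * hS μ = up a := by
  rw [mul_assoc, inv_mul_eq_iff_eq_mul]
  apply Subtype.ext
  simp only [Matrix.SpecialLinearGroup.coe_mul, coe_up, coe_hS hμ]
  ext i j
  fin_cases i <;> fin_cases j <;> simp [Matrix.mul_apply, Fin.sum_univ_two] <;> field_simp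

theorem hS_lo {μ : k} (hμ : μ ≠ 0) (a : k) : (hS μ)⁻¹ * lo a * hS μ = lo (μ ^ 2 * a) := by
  rw [mul_assoc, inv_mul_eq_iff_eq_mul]
  apply Subtype.ext
  simp only [Matrix.SpecialLinearGroup.coe_mul, coe_lo, coe_hS hμ]
  ext i j
  fin_cases i <;> fin_cases j <;> simp [Matrix.mul_apply, Fin.sum_univ_two] <;> field_simp

end SL

variable {D : ChevalleyDatum} {l : ℕ} {M : CoxeterMatrix (Fin l)} (hp : IsType D l M) {k : Type u} [Field k]
variable {s : ℕ} (hs : s < D.nroots)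

/-! ### the monomial elements -/

/-- An element acting by scalars on `X_s`, `X_{-s}` and commuting with `z`. -/
theorem scal [IsAlgClosed k] (h2 : (2 : k) ≠ 0) (hinj : Function.Injective (ph hp k hs)) {n : ↥(D.group k)} {c d : k}
    (hc0 : c ≠ 0) (hd0 : d ≠ 0)
    (hc : ∀ a, n * ph hp k hs (up a) * n⁻¹ = ph hp k hs (up (c * a)))
    (hd : ∀ a, n * ph hp k hs (lo a) * n⁻¹ = ph hp k hs (lo (d * a)))
    (hz : n * zz hp (k := k) hs = zz hp hs * n) : n ∈ LC hp (k := k) hs := by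
  obtain ⟨μ, hμ⟩ := IsAlgClosed.exists_pow_nat_eq c (show 0 < 2 by norm_num)
  have hμ0 : μ ≠ 0 := by
    rintro rfl
    apply hc0
    rw [← hμ, zero_pow (by norm_num)]
  obtain ⟨m, hm⟩ : ∃ m, m = (ph hp k hs (hS μ))⁻¹ * n := ⟨_, rfl⟩
  have e1 : ∀ a, m * ph hp k hs (up a) * m⁻¹ = ph hp k hs (up a) := by
    intro a
    calc m * ph hp k hs (up a) * m⁻¹ = (ph hp k hs (hS μ))⁻¹ * (n * ph hp k hs (up a) * n⁻¹) * ph hp k hs (hS μ) := by
          rw [hm]; group
      _ = ph hp k hs ((hS μ)⁻¹ * up (μ ^ 2 * a) * hS μ) := by rw [hc, hμ, map_mul, map_mul, map_inv]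
      _ = _ := by rw [hS_up hμ0]
  have e2 : ∀ a, m * ph hp k hs (lo a) * m⁻¹ = ph hp k hs (lo (c * d * a)) := by
    intro a
    calc m * ph hp k hs (lo a) * m⁻¹ = (ph hp k hs (hS μ))⁻¹ * (n * ph hp k hs (lo a) * n⁻¹) * ph hp k hs (hS μ) := by
          rw [hm]; group
      _ = ph hp k hs ((hS μ)⁻¹ * lo (d * a) * hS μ) := by rw [hd, map_mul, map_mul, map_inv]
      _ = _ := by rw [hS_lo hμ0, hμ, mul_assoc]
  have e3 : m * zz hp (k := k) hs * m⁻¹ = zz hp hs := by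
    have h3 : (ph hp k hs (hS μ))⁻¹ * zz hp (k := k) hs * ph hp k hs (hS μ) = zz hp hs := by
      unfold zz
      rw [← map_inv, ← map_mul, ← map_mul, mul_assoc, hS_neg_comm, inv_mul_cancel_left]
    calc m * zz hp (k := k) hs * m⁻¹ = (ph hp k hs (hS μ))⁻¹ * (n * zz hp (k := k) hs * n⁻¹) * ph hp k hs (hS μ) := by
          rw [hm]; group
      _ = _ := by rw [hz, mul_inv_cancel_right, h3]
  have e4 : c * d = 1 := by
    refine sl_key h2 (mul_ne_zero hc0 hd0) (hinj ?_)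
    have h4 : m * ph hp k hs (up 1 * lo (-1) * up 1 * (up 1 * lo (-1) * up 1)) * m⁻¹ =
        ph hp k hs (up 1 * lo (-(c * d)) * up 1 * (up 1 * lo (-(c * d)) * up 1)) := by
      have h5 := e2 (-1)
      rw [mul_neg, mul_one] at h5
      simp only [map_mul]
      calc _ = (m * ph hp k hs (up 1) * m⁻¹) * (m * ph hp k hs (lo (-1)) * m⁻¹) * (m * ph hp k hs (up 1) * m⁻¹) *
            ((m * ph hp k hs (up 1) * m⁻¹) * (m * ph hp k hs (lo (-1)) * m⁻¹) * (m * ph hp k hs (up 1) * m⁻¹)) := by group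
        _ = _ := by rw [e1, h5]
    rw [← h4, sl_one]
    exact e3
  have e5 : m ∈ Subgroup.centralizer ((ph hp k hs).range : Set ↥(D.group k)) := by
    refine mem_cent hp hs (fun t => ?_) (fun t => ?_)
    · rw [← ph_up hp hs]
      exact mul_inv_eq_iff_eq_mul.1 (e1 t)
    · rw [← ph_lo hp hs]
      have h6 := e2 t
      rw [e4, one_mul] at h6
      exact mul_inv_eq_iff_eq_mul.1 h6
  exact (mem_LC hp hs).2 ⟨hS μ, m, e5, by rw [hm, mul_inv_cancel_left]⟩

theorem mem_LC_mono [IsAlgClosed k] (h2 : (2 : k) ≠ 0) (hinj : Function.Injective (ph hp k hs))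
    (hB : H808.RV.tabB D s = true) {n : ↥(D.group k)} (hn : (n : GL D.Idx k) ∈ D.monomialSubgroup k)
    (hz : n * zz hp (k := k) hs = zz hp hs * n) : n ∈ LC hp (k := k) hs := by
  have hD := hp.inList
  have hneg := neg_lt hD hs
  have hz' : (n : GL D.Idx k) * hG hD s (-1 : k) = hG hD s (-1 : k) * (n : GL D.Idx k) := by
    have h1 := congrArg Subtype.val hz
    unfold zz at h1
    rw [Subgroup.coe_mul, Subgroup.coe_mul, coe_ph, psi_hS hD hs] at h1
    exact h1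
  have h3 := H808.RV.perm_of_comm hD h2 hs hB ⟨(n : GL D.Idx k), hn⟩ hz'
  obtain ⟨c, hc0, hc⟩ := H3.OT.conj_xG hD ⟨(n : GL D.Idx k), hn⟩ ⟨s, hs⟩
  obtain ⟨d, hd0, hd⟩ := H3.OT.conj_xG hD ⟨(n : GL D.Idx k), hn⟩ ⟨D.neg s, hneg⟩
  have h4 := H808.RV.perm_neg hD ⟨(n : GL D.Idx k), hn⟩ hs
  simp only at hc hd
  rcases h3 with h3 | h3
  · rw [h3] at h4 hc
    rw [h4] at hd
    refine scal hp hs h2 hinj hc0 hd0 (fun a => ?_) (fun a => ?_) hz
    · rw [ph_up, ph_up]
      exact Subtype.ext (hc a)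
    · rw [ph_lo, ph_lo]
      exact Subtype.ext (hd a)
  · rw [h3, neg_neg_eq hp hs] at h4
    rw [h3] at hc
    rw [h4] at hd
    have hc' : ∀ a, n * ph hp k hs (up a) * n⁻¹ = ph hp k hs (lo (c * a)) := by
      intro a
      rw [ph_up, ph_lo]
      exact Subtype.ext (hc a)
    have hd' : ∀ a, n * ph hp k hs (lo a) * n⁻¹ = ph hp k hs (up (d * a)) := by
      intro a
      rw [ph_up, ph_lo]
      exact Subtype.ext (hd a)
    have h5 : ph hp k hs (wS 1) * n ∈ LC hp (k := k) hs := by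
      refine scal hp hs h2 hinj (neg_ne_zero.2 hc0) (neg_ne_zero.2 hd0) (fun a => ?_) (fun a => ?_) ?_
      · calc ph hp k hs (wS 1) * n * ph hp k hs (up a) * (ph hp k hs (wS 1) * n)⁻¹
            = ph hp k hs (wS 1) * (n * ph hp k hs (up a) * n⁻¹) * (ph hp k hs (wS 1))⁻¹ := by group
          _ = ph hp k hs (wS 1 * lo (c * a) * (wS 1)⁻¹) := by rw [hc', map_mul, map_mul, map_inv]
          _ = _ := by rw [wS_lo, neg_mul]
      · calc ph hp k hs (wS 1) * n * ph hp k hs (lo a) * (ph hp k hs (wS 1) * n)⁻¹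
            = ph hp k hs (wS 1) * (n * ph hp k hs (lo a) * n⁻¹) * (ph hp k hs (wS 1))⁻¹ := by group
          _ = ph hp k hs (wS 1 * up (d * a) * (wS 1)⁻¹) := by rw [hd', map_mul, map_mul, map_inv]
          _ = _ := by rw [wS_up, neg_mul]
      · have h6 : ph hp k hs (wS 1) * zz hp (k := k) hs = zz hp hs * ph hp k hs (wS 1) := by
          unfold zz
          rw [← map_mul, ← map_mul, hS_neg_comm]
        rw [mul_assoc, hz, ← mul_assoc, h6, mul_assoc]
    have h7 : ph hp k hs (wS 1) ∈ LC hp (k := k) hs := (mem_LC hp hs).2 ⟨wS 1, 1, one_mem _, by rw [mul_one]⟩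
    have h8 := mul_mem (inv_mem h7) h5
    rwa [inv_mul_cancel_left] at h8

/-! ### all elements -/

include hp in
theorem glMap_mono {F K : Type u} [Field F] [Field K] (f : F →+* K) {g : GL D.Idx F}
    (hg : g ∈ D.monomialSubgroup F) : glMap D f g ∈ D.monomialSubgroup K := by
  have h1 : D.monomialSubgroup F ≤ (D.monomialSubgroup K).comap (glMap D f) := by
    refine sup_le ?_ ((Subgroup.closure_le _).2 ?_)
    · intro x hx
      exact Subgroup.mem_sup_left (glMap_diagonal hp f hx)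
    · rintro x ⟨r, hr, hx⟩
      have h2 : x = nG hp.inList r 1 := Units.ext (by rw [hx, coe_nG])
      rw [SetLike.mem_coe, Subgroup.mem_comap, h2, glMap_nG hp, map_one]
      exact Subgroup.mem_sup_right (Subgroup.subset_closure ⟨r, hr, by rw [coe_nG]⟩)
  exact h1 hg

theorem mem_LC_all [IsAlgClosed k] (h2 : (2 : k) ≠ 0) (p : ℕ) [Fact p.Prime] [CharP k p] (hk : LocFin k)
    (hg : good D s = true) (hl : lng D s = true) (hB : H808.RV.tabB D s = true) {g : ↥(D.group k)}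
    (hz : g * zz hp (k := k) hs = zz hp hs * g) : g ∈ LC hp (k := k) hs := by
  have hD := hp.inList
  obtain ⟨E, hE⟩ := exists_level hp hk g
  obtain ⟨g', hg'⟩ := hE E le_rfl
  have hfin : Finite ↥E.1 := E.2
  have hinj := emb_injective hD E.1.subtype
  have hm1 : (-1 : ↥E.1) ≠ 0 := neg_ne_zero.2 one_ne_zero
  -- the element `z` at the level `E`
  have hzE : glMap D E.1.subtype (hG hD s (-1 : ↥E.1)) = hG hD s (-1 : k) := by
    rw [glMap_hG hp, map_neg, map_one]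
  have hzk : ((zz hp (k := k) hs : ↥(D.group k)) : GL D.Idx k) = hG hD s (-1 : k) := by
    unfold zz
    rw [coe_ph, psi_hS hD hs]
  have hcomm : (g' : GL D.Idx ↥E.1) * hG hD s (-1 : ↥E.1) = hG hD s (-1 : ↥E.1) * (g' : GL D.Idx ↥E.1) := by
    apply glMap_injective D E.1.subtype
    rw [map_mul, map_mul, hzE, ← coe_emb hD, hg', ← hzk, ← Subgroup.coe_mul, ← Subgroup.coe_mul, hz]
  have hzm := H412.OT.hG_mem hD hs hm1
  have hZ : Subgroup.zpowers (hG hD s (-1 : ↥E.1)) ≤ D.diagonalSubgroup ↥E.1 := by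
    rw [Subgroup.zpowers_le]; exact hzm
  have hc : (g' : GL D.Idx ↥E.1) ∈ Subgroup.centralizer (Subgroup.zpowers (hG hD s (-1 : ↥E.1)) : Set (GL D.Idx ↥E.1)) := by
    rw [Subgroup.mem_centralizer_iff]
    intro x hx
    obtain ⟨n, rfl⟩ := Subgroup.mem_zpowers_iff.1 hx
    exact ((show Commute (g' : GL D.Idx ↥E.1) (hG hD s (-1 : ↥E.1)) from hcomm).zpow_right n).symm
  obtain ⟨u, hu, n, hn, hnc, v, hv, huv⟩ := H3.OT.cent_form hD hZ g'.2 hc
  have h2E : (2 : ↥E.1) ≠ 0 := by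
    intro h
    apply h2
    have h0 := congrArg E.1.subtype h
    rwa [map_ofNat, map_zero] at h0
  -- the elements of `GS`
  have hGS : ∀ x ∈ H412.OT.GS D ↥E.1 (H3.OT.PsiZ D ↥E.1 (Subgroup.zpowers (hG hD s (-1 : ↥E.1)))),
      ∃ y ∈ LC hp (k := k) hs, (y : GL D.Idx k) = glMap D E.1.subtype x := by
    have h3 : H412.OT.GS D ↥E.1 (H3.OT.PsiZ D ↥E.1 (Subgroup.zpowers (hG hD s (-1 : ↥E.1)))) ≤
        ((LC hp (k := k) hs).map (D.group k).subtype).comap (glMap D E.1.subtype) := by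
      refine sup_le ?_ (iSup₂_le fun r hr => ?_)
      · intro x hx
        have h4 := glMap_diagonal hp E.1.subtype hx
        have h5 : glMap D E.1.subtype x ∈ D.group k := diagonal_le_group hD k h4
        exact ⟨⟨_, h5⟩, TT_le_LC hp hs p hk (Subgroup.mem_subgroupOf.2 h4), rfl⟩
      · intro x hx
        obtain ⟨a, rfl⟩ := (mem_rootSubgroup_iff hD r x).1 hx
        have h4 := hr.2 _ (Subgroup.mem_zpowers _)
        rw [H412.OT.chi_hG hD hs hr.1 hm1] at h4
        have h5 : HMatDiagAll.expo D s r % 2 = 0 := by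
          refine expo_even hp hs h2 p hk hr.1 ?_
          have e1 := act_xs hp hr.1 (zz_mem hp (k := k) hs) 1
          have e2 := H412.OT.tor_conj_xG hD (H412.OT.hG_mem hD hs (neg_ne_zero.2 (one_ne_zero' k))) hr.1 1
          have e3 := congrArg Subtype.val e1
          rw [Subgroup.coe_mul, Subgroup.coe_mul, Subgroup.coe_inv, hzk] at e3
          have e4 := xG_injective hD hr.1 (e3.symm.trans e2)
          rw [mul_one, mul_one] at e4
          rw [e4, H412.OT.chi_hG hD hs hr.1 (neg_ne_zero.2 (one_ne_zero' k))]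
          exact H808.RV.neg_one_zpow_of_even (H808.RV.neg_one_zpow_eq h2E h4)
        refine ⟨xs hD r (E.1.subtype a), X_le_LC hp hs hg hr.1 h5 ?_, ?_⟩
        · exact (LangThm.mem_XX_vec hp hr.1).2 ⟨_, rfl⟩
        · exact (glMap_xG hD _ _ _).symm
    exact fun x hx => h3 hx
  obtain ⟨u', hu', hu2⟩ := hGS u hu
  obtain ⟨v', hv', hv2⟩ := hGS v hv
  obtain ⟨n', hn'⟩ : ∃ n' : ↥(D.group k), n' = u'⁻¹ * g * v'⁻¹ := ⟨_, rfl⟩
  have hn2 : (n' : GL D.Idx k) = glMap D E.1.subtype n := by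
    rw [hn', Subgroup.coe_mul, Subgroup.coe_mul, Subgroup.coe_inv, Subgroup.coe_inv, hu2, hv2, ← hg', coe_emb, huv,
      map_mul, map_mul]
    group
  have hn3 : (n' : GL D.Idx k) ∈ D.monomialSubgroup k := by rw [hn2]; exact glMap_mono hp _ hn
  have hnz : n * hG hD s (-1 : ↥E.1) = hG hD s (-1 : ↥E.1) * n :=
    (Subgroup.mem_centralizer_iff.1 hnc _ (Subgroup.mem_zpowers _)).symm
  have hn4 : n' * zz hp (k := k) hs = zz hp hs * n' := by
    apply Subtype.ext
    rw [Subgroup.coe_mul, Subgroup.coe_mul, hn2, hzk, ← hzE, ← map_mul, ← map_mul, hnz]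
  have h5 := mem_LC_mono hp hs h2 (good_inj hp hs hg hl h2) hB hn3 hn4
  have h6 : g = u' * n' * v' := by rw [hn']; group
  rw [h6]
  exact mul_mem (mul_mem hu' h5) hv'

/-! ### the frame -/

include hp in
theorem fin_order (hk : LocFin k) (g : ↥(D.group k)) : ∃ N : ℕ, N ≠ 0 ∧ g ^ N = 1 := by
  have hD := hp.inList
  obtain ⟨E, hE⟩ := exists_level hp hk g
  obtain ⟨g', rfl⟩ := hE E le_rfl
  have hfin : Finite ↥E.1 := E.2
  have := Fintype.ofFinite ↥E.1
  have : Finite (GL D.Idx ↥E.1) := inferInstance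
  refine ⟨Nat.card ↥(D.group ↥E.1), Nat.card_pos.ne', ?_⟩
  rw [← map_pow, pow_card_eq_one', map_one]

theorem zinj' {m : ℕ} {s : Fin m → ℕ} (hs : ∀ i, s i < D.nroots) (h2 : (2 : k) ≠ 0) (p : ℕ) [Fact p.Prime] [CharP k p]
    (hk : LocFin k) (hinj : Function.Injective s) (hchk : chkZ D (List.ofFn s) = true) (i j : Fin m)
    (h : zz hp (k := k) (hs i) = zz hp (hs j)) : i = j := by
  have h3 := (List.all_eq_true.1 hchk) (s i) ((List.mem_ofFn' _ _).2 ⟨i, rfl⟩)
  have h4 := (List.all_eq_true.1 h3) (s j) ((List.mem_ofFn' _ _).2 ⟨j, rfl⟩)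
  rw [Bool.or_eq_true, decide_eq_true_iff] at h4
  rcases h4 with h4 | h4
  · exact hinj h4
  · exfalso
    obtain ⟨r, hr, h6⟩ := List.any_eq_true.1 h4
    have h6' := of_decide_eq_true h6
    have hr' := List.mem_range.1 hr
    have e1 := ch_ph_hS hp (hs i) p hk (c := (-1 : k)) (neg_ne_zero.2 one_ne_zero) hr'
    have e2 := ch_ph_hS hp (hs j) p hk (c := (-1 : k)) (neg_ne_zero.2 one_ne_zero) hr'
    unfold zz at h
    rw [h, e2, H971.RV.neg_one_zpow_eq, H971.RV.neg_one_zpow_eq] at e1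
    split_ifs at e1 with h7 h8 h8
    · omega
    · push_cast at e1
      exact h2 (by linear_combination e1)
    · push_cast at e1
      exact h2 (by linear_combination -e1)
    · omega

/-- the checks for a frame -/
def chkF (D : ChevalleyDatum) (L : List ℕ) : Bool :=
  (L.all fun s => good D s && lng D s && H808.RV.tabB D s) && decide L.Nodup && chkO D L && chkZ D L

/-- **The frame.** -/
theorem frA_of {m : ℕ} {s : Fin m → ℕ} (hs : ∀ i, s i < D.nroots) (hgl : ∀ r < D.nroots, gl D (List.ofFn s) r ≠ 0)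
    (hchk : chkF D (List.ofFn s) = true) [IsAlgClosed k] (h2 : (2 : k) ≠ 0) (p : ℕ) [Fact p.Prime] [CharP k p]
    (hk : LocFin k) : H554.RX.FrA (fun i => ph hp k (hs i)) (TT D k) := by
  unfold chkF at hchk
  rw [Bool.and_eq_true, Bool.and_eq_true, Bool.and_eq_true, decide_eq_true_iff] at hchk
  obtain ⟨⟨⟨h1, h3⟩, h4⟩, h5⟩ := hchk
  have hgl' : ∀ i, good D (s i) = true ∧ lng D (s i) = true ∧ H808.RV.tabB D (s i) = true := by
    intro i
    have h7 := (List.all_eq_true.1 h1) (s i) ((List.mem_ofFn' _ _).2 ⟨i, rfl⟩)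
    rwa [Bool.and_eq_true, Bool.and_eq_true, and_assoc] at h7
  have hinj : Function.Injective s := List.nodup_ofFn.1 h3
  refine ⟨fun i => good_inj hp (hs i) (hgl' i).1 (hgl' i).2.1 h2, fun i j h => zinj' hp hs h2 p hk hinj h5 i j h,
    fun i j hij A B => ort_of hp hs h4 hinj i j hij A B, fun i g hg => ?_, fun g hg => ?_, fun a ha b hb => TT_comm hp a ha b hb,
    fun i c hc => ph_hS_mem hp (hs i) hc⟩
  · obtain ⟨A, c, hc, e⟩ := (mem_LC hp (hs i)).1 (mem_LC_all hp (hs i) h2 p hk (hgl' i).1 (hgl' i).2.1 (hgl' i).2.2 hg)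
    exact ⟨A, c, fun B => ((Subgroup.mem_centralizer_iff.1 hc) _ ⟨B, rfl⟩).symm, e⟩
  · obtain ⟨N, hN0, hN⟩ := fin_order hp hk g
    have hL : ∀ s' ∈ List.ofFn s, s' < D.nroots := by
      intro s' h
      obtain ⟨i, rfl⟩ := (List.mem_ofFn' _ _).1 h
      exact hs i
    refine mem_TT_of_frame hp p hk (List.ofFn s) hL hgl (n := g) (fun s' h => ?_) hN0 hN
    obtain ⟨i, rfl⟩ := (List.mem_ofFn' _ _).1 h
    rw [Subgroup.mem_centralizer_iff]
    rintro _ ⟨A, rfl⟩
    exact (hg i A).symm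

/-! ### the four types -/

theorem chkF_F4 : chkF chevF4 (List.ofFn sF4) = true := by decide +kernel
theorem chkF_E6 : chkF chevE6 (List.ofFn sE6) = true := by decide +kernel
theorem chkF_E7 : chkF chevE7 (List.ofFn sE7) = true := by decide +kernel
theorem chkF_E8 : chkF chevE8 (List.ofFn sE8) = true := by decide +kernel

theorem frA_F4 [IsAlgClosed k] (h2 : (2 : k) ≠ 0) (p : ℕ) [Fact p.Prime] [CharP k p] (hk : LocFin k) :
    H554.RX.FrA (fun i => ph f4T k (ltsF4 i)) (TT chevF4 k) := frA_of f4T ltsF4 glF4 chkF_F4 h2 p hk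

theorem frA_E6 [IsAlgClosed k] (h2 : (2 : k) ≠ 0) (p : ℕ) [Fact p.Prime] [CharP k p] (hk : LocFin k) :
    H554.RX.FrA (fun i => ph e6T k (ltsE6 i)) (TT chevE6 k) := frA_of e6T ltsE6 glE6 chkF_E6 h2 p hk

theorem frA_E7 [IsAlgClosed k] (h2 : (2 : k) ≠ 0) (p : ℕ) [Fact p.Prime] [CharP k p] (hk : LocFin k) :
    H554.RX.FrA (fun i => ph e7T k (ltsE7 i)) (TT chevE7 k) := frA_of e7T ltsE7 glE7 chkF_E7 h2 p hk

theorem frA_E8 [IsAlgClosed k] (h2 : (2 : k) ≠ 0) (p : ℕ) [Fact p.Prime] [CharP k p] (hk : LocFin k) :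
    H554.RX.FrA (fun i => ph e8T k (ltsE8 i)) (TT chevE8 k) := frA_of e8T ltsE8 glE8 chkF_E8 h2 p hk

end Cfsg.Agent.H971.RX
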